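/-
Supersolvable groups and the converse of Lagrange's theorem.
-/
import Mathlib
import Cfsg.Agent.Lib.Supersolvable.Basic

set_option autoImplicit false

open scoped Pointwise

namespace CfsgLib.Supersolvable

universe u

variable {G : Type u} [Group G] [Finite G]

/-- The order of the preimage of a subgroup of a quotient. -/
theorem card_comap_quotient (N : Subgroup G) [N.Normal] (L : Subgroup (G ⧸ N)) :
    Nat.card (L.comap (QuotientGroup.mk' N)) = Nat.card L * Nat.card N := by
  have h1 := (L.comap (QuotientGroup.mk' N)).card_mul_index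
  rw [L.index_comap_of_surjective (QuotientGroup.mk'_surjective N),
    Subgroup.card_eq_card_quotient_mul_card_subgroup N, ← L.card_mul_index] at h1
  have hpos : 0 < L.index := Nat.pos_of_ne_zero L.index_ne_zero_of_finite
  nlinarith

omit [Finite G] in
theorem exists_mem_center_ne_one {p : ℕ} [Fact p.Prime] [Finite G] (hG : IsPGroup p G)
    (H : Subgroup G) [H.Normal] [Nontrivial H] : ∃ z ∈ H, z ∈ Subgroup.center G ∧ z ≠ 1 := by
  have hd : p ∣ Nat.card H := by
    obtain ⟨k, hk, hc⟩ := (hG.to_subgroup H).nontrivial_iff_card.mp inferInstance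
    exact hc ▸ dvd_pow_self p hk.ne'
  obtain ⟨z, hz, hne⟩ := (hG.of_equiv ConjAct.toConjAct).exists_fixed_point_of_prime_dvd_card_of_fixed_point
    H hd (a := (1 : H)) (fun g => smul_one g)
  refine ⟨z, z.2, Subgroup.mem_center_iff.mpr fun g => ?_, fun h => hne (Subtype.ext h.symm)⟩
  have h := congrArg Subtype.val (hz (ConjAct.toConjAct g))
  rw [ConjAct.Subgroup.val_conj_smul, ConjAct.toConjAct_smul] at h
  exact mul_inv_eq_iff_eq_mul.mp h

theorem hasSubgroupOfEveryOrder (hG : Cfsg.IsSupersolvable G) :
    Cfsg.HasSubgroupOfEveryOrder G := by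
  suffices ∀ (n : ℕ) (G : Type u) [Group G] [Finite G], Nat.card G = n → Cfsg.IsSupersolvable G →
      Cfsg.HasSubgroupOfEveryOrder G from this _ G rfl hG
  intro n
  induction n using Nat.strong_induction_on with
  | _ n ih =>
    intro G _ _ hn hG d hd
    rcases subsingleton_or_nontrivial G with h | h
    · refine ⟨⊥, ?_⟩
      rw [Subgroup.card_bot]
      rw [Nat.card_eq_one_iff_unique.mpr ⟨h, inferInstance⟩, Nat.dvd_one] at hd
      exact hd.symm
    obtain ⟨N, hN, hp⟩ := exists_normal_prime hG
    haveI := hN
    have hsub := ih _ (hn ▸ card_quotient_lt N (ne_bot_of_prime hp)) (G ⧸ N) rfl (quotient N hG)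
    have hcard := Subgroup.card_eq_card_quotient_mul_card_subgroup N
    by_cases hpd : Nat.card N ∣ d
    · obtain ⟨e, rfl⟩ := hpd
      obtain ⟨L, hL⟩ := hsub e
        ((Nat.mul_dvd_mul_iff_left hp.pos).mp (by rwa [hcard, mul_comm (Nat.card (G ⧸ N))] at hd))
      exact ⟨L.comap (QuotientGroup.mk' N), by rw [card_comap_quotient, hL, mul_comm]⟩
    · have hco : Nat.Coprime d (Nat.card N) := (hp.coprime_iff_not_dvd.mpr hpd).symm
      obtain ⟨L, hL⟩ := hsub d (hco.dvd_of_dvd_mul_right (hcard ▸ hd))
      let M := L.comap (QuotientGroup.mk' N)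
      have hNM : N ≤ M := (QuotientGroup.ker_mk' N).ge.trans (MonoidHom.ker_le_comap _ _)
      have hM : Nat.card M = d * Nat.card N := by rw [card_comap_quotient, hL]
      have hNc : Nat.card (N.subgroupOf M) = Nat.card N :=
        Nat.card_congr (Subgroup.subgroupOfEquivOfLe hNM).toEquiv
      have hidx : (N.subgroupOf M).index = d := by
        have := (N.subgroupOf M).card_mul_index
        rw [hNc, hM, mul_comm d] at this
        exact Nat.mul_left_cancel hp.pos this
      obtain ⟨K, hK⟩ := Subgroup.exists_right_complement'_of_coprime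
        (N := N.subgroupOf M) (by rw [hNc, hidx]; exact hco.symm)
      refine ⟨K.map M.subtype, ?_⟩
      rw [Subgroup.card_map_of_injective M.subtype_injective]
      have := hK.card_mul_card
      rw [hNc, hM, mul_comm d] at this
      exact Nat.mul_left_cancel hp.pos this

theorem hasSubgroupOfEveryOrder_of_equiv {H K : Type*} [Group H] [Group K] (e : H ≃* K)
    (h : Cfsg.HasSubgroupOfEveryOrder H) : Cfsg.HasSubgroupOfEveryOrder K := fun d hd => by
  obtain ⟨L, hL⟩ := h d (by rwa [Nat.card_congr e.toEquiv])
  exact ⟨L.map e.toMonoidHom, by rw [Subgroup.card_map_of_injective e.injective, hL]⟩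

omit [Finite G] in
theorem hereditary_subgroup (h : ∀ H : Subgroup G, Cfsg.HasSubgroupOfEveryOrder H)
    (S : Subgroup G) (H : Subgroup S) : Cfsg.HasSubgroupOfEveryOrder H :=
  hasSubgroupOfEveryOrder_of_equiv (H.equivMapOfInjective S.subtype S.subtype_injective).symm (h _)

omit [Finite G] in
theorem exists_le_card_eq (h : ∀ H : Subgroup G, Cfsg.HasSubgroupOfEveryOrder H) (L : Subgroup G)
    {d : ℕ} (hd : d ∣ Nat.card L) : ∃ S ≤ L, Nat.card S = d := by
  obtain ⟨S, hS⟩ := h L d hd
  exact ⟨S.map L.subtype, Subgroup.map_subtype_le S, by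
    rw [Subgroup.card_map_of_injective L.subtype_injective, hS]⟩

/-- If every subgroup satisfies the converse of Lagrange's theorem, a Sylow subgroup for the
largest prime is normal. -/
theorem normal_sylow_of_hereditary (h : ∀ H : Subgroup G, Cfsg.HasSubgroupOfEveryOrder H) (p : ℕ)
    [Fact p.Prime] (hmax : ∀ q : ℕ, q.Prime → q ∣ Nat.card G → q ≤ p) (P : Sylow p G) :
    (P : Subgroup G).Normal := by
  suffices ∀ (n : ℕ) (G : Type u) [Group G] [Finite G], Nat.card G = n →
      (∀ H : Subgroup G, Cfsg.HasSubgroupOfEveryOrder H) →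
      (∀ q : ℕ, q.Prime → q ∣ Nat.card G → q ≤ p) → ∀ P : Sylow p G, (P : Subgroup G).Normal from
    this _ G rfl h hmax P
  intro n
  induction n using Nat.strong_induction_on with
  | _ n ih =>
    intro G _ _ hn h hmax P
    by_cases hone : ∀ q : ℕ, q.Prime → q ∣ Nat.card G → q = p
    · have hG : Nat.card P = Nat.card G := by
        rw [P.card_eq_multiplicity]
        refine Nat.eq_of_factorization_eq (pow_ne_zero _ (Fact.out : p.Prime).ne_zero)
          Nat.card_pos.ne' fun q => ?_
        rw [(Fact.out : p.Prime).factorization_pow]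
        rcases eq_or_ne q p with rfl | hq
        · simp
        · rw [Finsupp.single_eq_of_ne hq]
          refine (Nat.factorization_eq_zero_iff _ _).mpr ?_ |>.symm
          by_contra hcon
          push Not at hcon
          exact hq (hone q hcon.1 hcon.2.1)
      rw [Subgroup.eq_top_of_card_eq _ hG]
      infer_instance
    push Not at hone
    obtain ⟨r, hr, hrd, hrp⟩ := hone
    have hcard1 : Nat.card G ≠ 1 := fun h1 => hr.ne_one (Nat.dvd_one.mp (h1 ▸ hrd))
    let q := (Nat.card G).minFac
    have hq : q.Prime := Nat.minFac_prime hcard1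
    have hqp : q ≠ p := by
      intro he
      have h1 : q ≤ r := Nat.minFac_le_of_dvd hr.two_le hrd
      exact hrp (le_antisymm (hmax r hr hrd) (he ▸ h1))
    obtain ⟨H, -, hH⟩ := exists_le_card_eq h ⊤ (d := Nat.card G / q) (by
      rw [Subgroup.card_top]; exact Nat.div_dvd_of_dvd (Nat.minFac_dvd _))
    have hidx : H.index = q := by
      have := H.card_mul_index
      rw [hH] at this
      nth_rw 2 [← Nat.div_mul_cancel (Nat.minFac_dvd (Nat.card G))] at this
      exact Nat.mul_left_cancel (Nat.div_pos (Nat.minFac_le Nat.card_pos) hq.pos) this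
    haveI : H.Normal := Subgroup.normal_of_index_eq_minFac_card hidx
    have hlt : Nat.card H < n := by
      rw [← hn, hH]
      exact Nat.div_lt_self Nat.card_pos hq.one_lt
    obtain ⟨Q⟩ := (inferInstance : Nonempty (Sylow p H))
    haveI hQn : (Q : Subgroup H).Normal := ih _ hlt H rfl (hereditary_subgroup h H)
      (fun s hs hsd => hmax s hs (hsd.trans (Subgroup.card_subgroup_dvd_card H))) Q
    haveI := Q.characteristic_of_normal hQn
    let M : Subgroup G := (Q : Subgroup H).map H.subtype
    have hM : M.Normal := ConjAct.normal_of_characteristic_of_normal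
    have hMc : Nat.card M = Nat.card P := by
      rw [Subgroup.card_map_of_injective H.subtype_injective, Q.card_eq_multiplicity,
        P.card_eq_multiplicity]
      congr 1
      conv_rhs => rw [← H.card_mul_index]
      rw [hidx, Nat.factorization_mul Nat.card_pos.ne' hq.ne_zero, Finsupp.add_apply,
        hq.factorization, Finsupp.single_eq_of_ne hqp.symm, add_zero]
    obtain ⟨P', hP'⟩ := (Q.isPGroup'.map H.subtype).exists_le_sylow
    obtain ⟨g, hg⟩ := MulAction.exists_smul_eq G P' P
    have hMP : M = (P : Subgroup G) := by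
      refine Subgroup.eq_of_le_of_card_ge ?_ hMc.ge
      rw [← hg, Sylow.coe_subgroup_smul]
      intro x hx
      have : x ∈ MulAut.conj g • M := by
        rw [Subgroup.mem_pointwise_smul_iff_inv_smul_mem]
        simpa [MulAut.smul_def] using hM.conj_mem' x hx g
      exact Subgroup.pointwise_smul_le_pointwise_smul_iff.mpr hP' this
    exact hMP ▸ hM

/-- If every subgroup satisfies the converse of Lagrange's theorem, the group is supersolvable. -/
theorem of_hereditary (h : ∀ H : Subgroup G, Cfsg.HasSubgroupOfEveryOrder H) :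
    Cfsg.IsSupersolvable G := by
  suffices ∀ (n : ℕ) (G : Type u) [Group G] [Finite G], Nat.card G = n →
      (∀ H : Subgroup G, Cfsg.HasSubgroupOfEveryOrder H) → Cfsg.IsSupersolvable G from this _ G rfl h
  intro n
  induction n using Nat.strong_induction_on with
  | _ n ih =>
    intro G _ _ hn h
    have hproper : ∀ S : Subgroup G, Nat.card S < Nat.card G → Cfsg.IsSupersolvable S :=
      fun S hS => ih _ (hn ▸ hS) S rfl (hereditary_subgroup h S)
    rcases subsingleton_or_nontrivial G with hsub | hsub
    · exact of_subsingleton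
    have hG1 : Nat.card G ≠ 1 := ne_of_gt Finite.one_lt_card
    obtain ⟨p, hp, hpd, hmax⟩ : ∃ p, p.Prime ∧ p ∣ Nat.card G ∧
        ∀ q : ℕ, q.Prime → q ∣ Nat.card G → q ≤ p := by
      have hne : (Nat.card G).primeFactors.Nonempty := ⟨(Nat.card G).minFac,
        Nat.mem_primeFactors.mpr ⟨Nat.minFac_prime hG1, Nat.minFac_dvd _, Nat.card_pos.ne'⟩⟩
      have hm := Finset.max'_mem _ hne
      rw [Nat.mem_primeFactors] at hm
      exact ⟨_, hm.1, hm.2.1, fun q hq hqd =>
        Finset.le_max' _ _ (Nat.mem_primeFactors.mpr ⟨hq, hqd, Nat.card_pos.ne'⟩)⟩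
    haveI := Fact.mk hp
    obtain ⟨P⟩ := (inferInstance : Nonempty (Sylow p G))
    haveI hPn : (P : Subgroup G).Normal := normal_sylow_of_hereditary h p hmax P
    have hPne : (P : Subgroup G) ≠ ⊥ := P.ne_bot_of_dvd_card hpd
    -- a normal subgroup of order `p`
    obtain ⟨N, hN, hNc⟩ : ∃ N : Subgroup G, N.Normal ∧ Nat.card N = p := by
      obtain ⟨M, -, hM⟩ := exists_le_card_eq h ⊤ (d := Nat.card G / p) (by
        rw [Subgroup.card_top]; exact Nat.div_dvd_of_dvd hpd)
      have hidx : M.index = p := by
        have := M.card_mul_index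
        rw [hM] at this
        nth_rw 2 [← Nat.div_mul_cancel hpd] at this
        exact Nat.mul_left_cancel (Nat.div_pos (Nat.le_of_dvd Nat.card_pos hpd) hp.pos) this
      have hMss := hproper M (hM ▸ Nat.div_lt_self Nat.card_pos hp.one_lt)
      have hPM : ¬ (P : Subgroup G) ≤ M := fun hle => by
        have := P.not_dvd_index
        exact this ((hidx ▸ dvd_rfl : p ∣ M.index).trans (Subgroup.index_dvd_of_le hle))
      have hsup : M ⊔ (P : Subgroup G) = ⊤ := by
        have hlt : M < M ⊔ P := lt_of_le_not_ge le_sup_left fun h1 => hPM (le_sup_right.trans h1)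
        refine Subgroup.index_eq_one.mp ?_
        rcases (Nat.dvd_prime hp).mp (hidx ▸ Subgroup.index_dvd_of_le hlt.le) with h1 | h1
        · exact h1
        · exact absurd (Subgroup.index_strictAnti hlt) (by rw [h1, hidx]; exact lt_irrefl p)
      let D : Subgroup M := (P : Subgroup G).subgroupOf M
      by_cases hDbot : D = ⊥
      · refine ⟨P, hPn, ?_⟩
        obtain ⟨k, hk⟩ := IsPGroup.iff_card.mp P.isPGroup'
        have hdisj : Disjoint (P : Subgroup G) M := Subgroup.subgroupOf_eq_bot.mp hDbot
        have hc := Subgroup.isComplement'_of_disjoint_and_mul_eq_univ hdisj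
          (by rw [← Subgroup.normal_mul, sup_comm, hsup]; rfl)
        exact (Subgroup.IsComplement'.index_eq_card hc).symm.trans hidx
      · let Z : Subgroup M := D ⊓ (Subgroup.centralizer (P : Set G)).subgroupOf M
        haveI : D.Normal := hPn.subgroupOf M
        haveI : Z.Normal := by
          haveI : (Subgroup.centralizer (P : Set G)).Normal := Subgroup.normal_centralizer
          infer_instance
        have hZ : Z ≠ ⊥ := by
          -- `D` is normalized by `P`, so meets its centre
          let D' : Subgroup P := (D.map M.subtype).subgroupOf P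
          have hPq : IsPGroup p P := P.isPGroup'
          haveI hD'n : D'.Normal := by
            refine ⟨fun x hx g => ?_⟩
            rw [Subgroup.mem_subgroupOf, Subgroup.subgroupOf_map_subtype] at hx ⊢
            refine ⟨hPn.conj_mem _ x.2 _, ?_⟩
            -- `M ⊓ P` is maximal in the `p`-group `P`
            have hcop : ((P : Subgroup G) ⊓ M).relIndex P ∣ p := by
              have h1 := Subgroup.relIndex_mul_index (inf_le_left : (P : Subgroup G) ⊓ M ≤ P)
              rw [← Subgroup.relIndex_mul_index (inf_le_right : (P : Subgroup G) ⊓ M ≤ M)] at h1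
              have h2 : ((P : Subgroup G) ⊓ M).relIndex M = (P : Subgroup G).index := by
                rw [Subgroup.inf_relIndex_right, ← Subgroup.relIndex_sup_right M (P : Subgroup G),
                  hsup, Subgroup.relIndex_top_right]
              rw [h2, mul_comm] at h1
              exact dvd_of_eq ((Nat.mul_left_cancel
                (Nat.pos_of_ne_zero (Subgroup.index_ne_zero_of_finite)) h1).trans hidx)
            have hn2 : (((P : Subgroup G) ⊓ M).subgroupOf P).Normal := by
              rcases (Nat.dvd_prime hp).mp hcop with h1 | h1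
              · rw [Subgroup.relIndex, Subgroup.index_eq_one] at h1
                rw [h1]; infer_instance
              · refine Subgroup.normal_of_index_eq_minFac_card ?_
                obtain ⟨k, hk⟩ := IsPGroup.iff_card.mp hPq
                have hk0 : k ≠ 0 := fun h0 => hPne (Subgroup.card_eq_one.mp (by rw [hk, h0, pow_zero]))
                rw [← Subgroup.relIndex, h1, hk, hp.pow_minFac hk0]
            exact (hn2.conj_mem x ⟨x.2, hx.2⟩ g).2
          haveI : Nontrivial D' := by
            rw [Subgroup.nontrivial_iff_ne_bot]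
            intro hb
            refine hDbot ((Subgroup.map_eq_bot_iff_of_injective _ M.subtype_injective).mp ?_)
            refine eq_bot_iff.mpr fun x hx => ?_
            have hxP : x ∈ (P : Subgroup G) := by
              rw [Subgroup.subgroupOf_map_subtype] at hx; exact hx.1
            have : (⟨x, hxP⟩ : P) ∈ D' := hx
            rw [hb, Subgroup.mem_bot] at this
            exact congrArg Subtype.val this
          obtain ⟨z, hzD, hzc, hz1⟩ := exists_mem_center_ne_one hPq D'
          obtain ⟨w, hw, hwz⟩ := hzD
          intro hb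
          refine hz1 (Subtype.ext ?_)
          have : w ∈ Z := ⟨hw, Subgroup.mem_centralizer_iff.mpr fun u hu => by
            rw [hwz]
            exact congrArg Subtype.val (Subgroup.mem_center_iff.mp hzc ⟨u, hu⟩)⟩
          rw [hb, Subgroup.mem_bot] at this
          rw [← show (w : G) = z from hwz, this]; rfl
        -- a normal series of `M` gives a subgroup of order `p` of `Z` normal in `M`
        obtain ⟨L, hLn, hLZ, hLc⟩ : ∃ L : Subgroup M, L.Normal ∧ L ≤ Z ∧ (Nat.card L).Prime := by
          obtain ⟨m, C, h0, h1, hn', hs⟩ := hMss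
          by_contra hcon
          have : ∀ i, C i ⊓ Z = ⊥ := by
            intro i
            induction i using Fin.induction with
            | zero => rw [h0, bot_inf_eq]
            | succ i ihi =>
              obtain ⟨g, hg⟩ := hs i
              haveI := hn' i.castSucc
              obtain ⟨w, hw, he⟩ := exists_generator_step (K := Z) g hg
              rw [inf_comm, he, inf_comm Z, ihi, bot_sup_eq]
              by_contra hne
              haveI := hn' i.succ
              haveI : IsCyclic (C i.succ ⊓ Z : Subgroup M) := by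
                rw [inf_comm, he, inf_comm Z, ihi, bot_sup_eq]; infer_instance
              haveI : Nontrivial (C i.succ ⊓ Z : Subgroup M) := by
                rw [Subgroup.nontrivial_iff_ne_bot, inf_comm, he, inf_comm Z, ihi, bot_sup_eq]
                exact hne
              obtain ⟨r, hr, hrd⟩ := Nat.exists_prime_and_dvd
                (Finite.one_lt_card (α := (C i.succ ⊓ Z : Subgroup M))).ne'
              haveI := Fact.mk hr
              obtain ⟨x, hx⟩ := exists_prime_orderOf_dvd_card' (G := (C i.succ ⊓ Z : Subgroup M)) r hrd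
              refine hcon ⟨Subgroup.zpowers (x : M),
                normal_of_le_cyclic_normal (N := C i.succ ⊓ Z) (Subgroup.zpowers_le.mpr x.2),
                Subgroup.zpowers_le.mpr x.2.2, ?_⟩
              rw [Nat.card_zpowers, Subgroup.orderOf_coe, hx]
              exact hr
          have h2 := this (Fin.last m)
          rw [h1, top_inf_eq] at h2
          exact hZ h2
        have hLp : Nat.card L = p := by
          have hd : Nat.card L ∣ Nat.card D := Subgroup.card_dvd_of_le (hLZ.trans inf_le_left)
          obtain ⟨k, hk⟩ := IsPGroup.iff_card.mp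
            ((P.isPGroup'.to_le (inf_le_right : M ⊓ P ≤ _)).of_equiv
              (Subgroup.subgroupOfEquivOfLe (inf_le_left : M ⊓ P ≤ M)).symm)
          have hD : D = (M ⊓ P).subgroupOf M := (Subgroup.inf_subgroupOf_left _ _).symm
          rw [hD, hk] at hd
          exact (Nat.prime_dvd_prime_iff_eq hLc hp).mp (hLc.dvd_of_dvd_pow hd)
        refine ⟨L.map M.subtype, ?_, by rw [Subgroup.card_map_of_injective M.subtype_injective, hLp]⟩
        rw [← Subgroup.normalizer_eq_top_iff, eq_top_iff, ← hsup]
        refine sup_le ?_ fun u hu => ?_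
        · rw [← Subgroup.normal_subgroupOf_iff_le_normalizer (Subgroup.map_subtype_le L)]
          rwa [Subgroup.subgroupOf, Subgroup.comap_map_eq_self_of_injective M.subtype_injective]
        · refine Subgroup.centralizer_le_normalizer _ (Subgroup.mem_centralizer_iff.mpr ?_)
          rintro _ ⟨w, hw, rfl⟩
          exact (Subgroup.mem_centralizer_iff.mp (hLZ hw).2 u hu).symm
    haveI := hN
    have hNp : (Nat.card N).Prime := hNc ▸ hp
    haveI := isCyclic_of_prime hNp
    refine of_quotient_cyclic N ?_
    have hcard := Subgroup.card_eq_card_quotient_mul_card_subgroup N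
    -- either the quotient is isomorphic to a proper subgroup, or it is hereditarily CLT
    by_cases hex : ∃ S : Subgroup G, ¬ N ≤ S ∧ N ⊔ S = ⊤
    · obtain ⟨S, hS, hS'⟩ := hex
      have hSlt : Nat.card S < Nat.card G := by
        refine lt_of_le_of_ne (Subgroup.card_le_card_group S) fun he => ?_
        exact hS ((Subgroup.eq_top_of_card_eq S he) ▸ le_top)
      refine map (f := (QuotientGroup.mk' N).comp S.subtype) ?_ (hproper S hSlt)
      intro x
      obtain ⟨g, rfl⟩ := QuotientGroup.mk'_surjective N x
      have : g ∈ N ⊔ S := hS' ▸ Subgroup.mem_top g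
      obtain ⟨a, ha, s, hs, rfl⟩ := Subgroup.mem_sup_of_normal_left.mp this
      exact ⟨⟨s, hs⟩, by simp [(QuotientGroup.eq_one_iff a).mpr ha]⟩
    refine ih _ (hn ▸ card_quotient_lt N (ne_bot_of_prime hNp)) _ rfl fun L d hd => ?_
    let L' := L.comap (QuotientGroup.mk' N)
    have hNL' : N ≤ L' := (QuotientGroup.ker_mk' N).ge.trans (MonoidHom.ker_le_comap _ _)
    have hL' : Nat.card L' = Nat.card L * p := by rw [card_comap_quotient, hNc]
    suffices ∃ S : Subgroup G, S ≤ L' ∧ Nat.card (S.map (QuotientGroup.mk' N)) = d by
      obtain ⟨S, hSL, hSc⟩ := this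
      refine ⟨(S.map (QuotientGroup.mk' N)).subgroupOf L, ?_⟩
      rw [Nat.card_congr (Subgroup.subgroupOfEquivOfLe (Subgroup.map_le_iff_le_comap.mpr hSL)).toEquiv, hSc]
    have hmapN : ∀ S : Subgroup G, N ≤ S →
        Nat.card (S.map (QuotientGroup.mk' N)) * p = Nat.card S := fun S hS => by
      rw [← hNc, ← card_comap_quotient,
        Subgroup.comap_map_eq_self ((QuotientGroup.ker_mk' N).symm ▸ hS)]
    by_cases hpd' : p ∣ d
    · obtain ⟨S, hSL, hSc⟩ := exists_le_card_eq h L' (d := d * p)
        (hL' ▸ Nat.mul_dvd_mul_right hd p)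
      by_cases hNS : N ≤ S
      · exact ⟨S, hSL, Nat.eq_of_mul_eq_mul_right hp.pos (by rw [hmapN S hNS, hSc])⟩
      have hne : N ⊔ S ≠ ⊤ := fun he => hex ⟨S, hNS, he⟩
      have hlt : Nat.card ↥(N ⊔ S) < Nat.card G :=
        lt_of_le_of_ne (Subgroup.card_le_card_group _) fun he => hne (Subgroup.eq_top_of_card_eq _ he)
      have hss : Cfsg.IsSupersolvable ↥((N ⊔ S).map (QuotientGroup.mk' N)) :=
        map (f := (QuotientGroup.mk' N).subgroupMap _)
          ((QuotientGroup.mk' N).subgroupMap_surjective _) (hproper _ hlt)
      obtain ⟨T, hT⟩ := hasSubgroupOfEveryOrder hss d (by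
        -- the image of `S` has order `d * p`
        have hinj : Function.Injective ((QuotientGroup.mk' N).comp S.subtype) := by
          rw [injective_iff_map_eq_one]
          intro s hs
          have hs' : (s : G) ∈ N ⊓ S := ⟨(QuotientGroup.eq_one_iff _).mp hs, s.2⟩
          rcases (Nat.dvd_prime hNp).mp (Subgroup.card_dvd_of_le (inf_le_left : N ⊓ S ≤ N)) with h1 | h1
          · rw [Subgroup.card_eq_one.mp h1, Subgroup.mem_bot] at hs'
            exact Subtype.ext hs'
          · exact absurd (inf_eq_left.mp (Subgroup.eq_of_le_of_card_ge inf_le_left h1.ge)) hNS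
        rw [Subgroup.map_sup, QuotientGroup.map_mk'_self, bot_sup_eq]
        refine (dvd_mul_right d p).trans (dvd_of_eq ?_)
        rw [← hSc, Nat.card_congr (MonoidHom.ofInjective hinj).toEquiv, MonoidHom.range_comp,
          Subgroup.range_subtype])
      refine ⟨(T.map ((N ⊔ S).map (QuotientGroup.mk' N)).subtype).comap (QuotientGroup.mk' N), ?_, ?_⟩
      · refine (Subgroup.comap_mono (Subgroup.map_subtype_le T)).trans ?_
        rw [Subgroup.comap_map_eq_self ((QuotientGroup.ker_mk' N).symm ▸ le_sup_left)]
        exact sup_le hNL' hSL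
      · rw [Subgroup.map_comap_eq_self_of_surjective (QuotientGroup.mk'_surjective N),
          Subgroup.card_map_of_injective (Subgroup.subtype_injective _), hT]
    · obtain ⟨S, hSL, hSc⟩ := exists_le_card_eq h L' (d := d) (hL' ▸ hd.trans (dvd_mul_right _ _))
      refine ⟨S, hSL, ?_⟩
      have hinj : Function.Injective ((QuotientGroup.mk' N).comp S.subtype) := by
        rw [injective_iff_map_eq_one]
        intro s hs
        have h1 : orderOf s ∣ p := by
          rw [← Subgroup.orderOf_coe, ← hNc]
          exact (N.orderOf_mk _ ((QuotientGroup.eq_one_iff _).mp hs)) ▸ orderOf_dvd_natCard _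
        rw [← orderOf_eq_one_iff]
        exact Nat.eq_one_of_dvd_coprimes (hp.coprime_iff_not_dvd.mpr hpd') h1
          (hSc ▸ orderOf_dvd_natCard s)
      rw [← hSc, Nat.card_congr (MonoidHom.ofInjective hinj).toEquiv, MonoidHom.range_comp,
        Subgroup.range_subtype]

end CfsgLib.Supersolvable
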